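-- Team project BRA (S4484, helper95): package [C1] (helper97).
import Cfsg.Agent.Lib.Helper95.BRA.Defs

set_option autoImplicit false

namespace Cfsg.Agent.Lib.Helper97.BRA

open Cfsg.Agent.Lib.Helper95.BRA

universe u

theorem pkgC1 : PkgC1.{u} := by
  intro G _ _ _ p q a b g₀ hp hq hpq ha hcard hpg hqg hne
  have : Fact p.Prime := ⟨hp⟩
  have hcard' : Nat.card G = p ^ a * (q ^ b * g₀) := by rw [hcard, mul_assoc]
  have hpdvd : p ∣ Nat.card G := by
    rw [hcard']
    exact Dvd.dvd.mul_right (dvd_pow_self p ha.ne') _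
  have hpco : ¬ p ∣ q ^ b * g₀ := by
    intro h
    rcases (Nat.Prime.dvd_mul hp).mp h with h1 | h1
    · exact hpq ((Nat.prime_dvd_prime_iff_eq hp hq).mp (hp.dvd_of_dvd_pow h1))
    · exact hpg h1
  refine ⟨?_, ?_⟩
  · intro hab
    obtain ⟨z, hz⟩ := exists_prime_orderOf_dvd_card' p hpdvd
    have hn : (Subgroup.zpowers z).Normal :=
      ⟨fun n hn g => by rw [hab g n, mul_inv_cancel_right]; exact hn⟩
    rcases IsSimpleGroup.eq_bot_or_eq_top_of_normal _ hn with h | h
    · rw [Subgroup.zpowers_eq_bot] at h
      rw [h, orderOf_one] at hz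
      exact hp.one_lt.ne hz
    · have h1 : Nat.card (Subgroup.zpowers z) = p := by rw [Nat.card_zpowers, hz]
      rw [h, Subgroup.card_top] at h1
      exact hne h1
  · obtain ⟨P⟩ : Nonempty (Sylow p G) := inferInstance
    obtain ⟨k, hk⟩ := IsPGroup.iff_card.mp P.isPGroup'
    have h1 : Nat.card (P : Subgroup G) * (P : Subgroup G).index = Nat.card G :=
      Subgroup.card_mul_index _
    have h2 : ¬ p ∣ (P : Subgroup G).index := P.not_dvd_index
    rw [hk, hcard'] at h1
    have cop1 : Nat.Coprime (p ^ k) (q ^ b * g₀) :=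
      Nat.Coprime.pow_left k ((Nat.Prime.coprime_iff_not_dvd hp).mpr hpco)
    have cop2 : Nat.Coprime (p ^ a) (P : Subgroup G).index :=
      Nat.Coprime.pow_left a ((Nat.Prime.coprime_iff_not_dvd hp).mpr h2)
    have hka : k ≤ a := by
      have : p ^ k ∣ p ^ a * (q ^ b * g₀) := Dvd.intro _ h1
      exact (Nat.pow_dvd_pow_iff_le_right hp.one_lt).mp (cop1.dvd_of_dvd_mul_right this)
    have hak : a ≤ k := by
      have : p ^ a ∣ p ^ k * (P : Subgroup G).index := Dvd.intro _ h1.symm
      exact (Nat.pow_dvd_pow_iff_le_right hp.one_lt).mp (cop2.dvd_of_dvd_mul_right this)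
    have hkeq : k = a := le_antisymm hka hak
    rw [hkeq] at h1 hk
    have hidx : (P : Subgroup G).index = q ^ b * g₀ :=
      Nat.eq_of_mul_eq_mul_left (pow_pos hp.pos a) h1
    -- an element of order `p` in the centre of `P`
    have hPnt : Nontrivial (P : Subgroup G) := by
      rw [← Finite.one_lt_card_iff_nontrivial, hk]
      exact Nat.one_lt_pow ha.ne' hp.one_lt
    have hZnt : Nontrivial (Subgroup.center (P : Subgroup G)) :=
      IsPGroup.center_nontrivial P.isPGroup'
    have hZp : IsPGroup p (Subgroup.center (P : Subgroup G)) :=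
      IsPGroup.to_subgroup P.isPGroup' _
    obtain ⟨j, hj⟩ := IsPGroup.iff_card.mp hZp
    have hj0 : j ≠ 0 := by
      rintro rfl
      have := Finite.one_lt_card_iff_nontrivial.mpr hZnt
      rw [hj] at this
      simp at this
    have hpZ : p ∣ Nat.card (Subgroup.center (P : Subgroup G)) := by
      rw [hj]
      exact dvd_pow_self p hj0
    obtain ⟨c, hc⟩ := exists_prime_orderOf_dvd_card' p hpZ
    let z : G := ((c : (P : Subgroup G)) : G)
    have hz : orderOf z = p := by
      show orderOf (((c : (P : Subgroup G)) : G)) = p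
      rw [Subgroup.orderOf_coe, Subgroup.orderOf_coe, hc]
    have hzc : ∀ x ∈ (P : Subgroup G), x * z = z * x := by
      intro x hx
      have := (Subgroup.mem_center_iff.mp c.2) ⟨x, hx⟩
      exact congrArg Subtype.val this
    have hPle : (P : Subgroup G) ≤ Subgroup.centralizer ({z} : Set G) := by
      intro x hx
      rw [Subgroup.mem_centralizer_iff]
      intro h hh
      rw [Set.mem_singleton_iff] at hh
      rw [hh]
      exact (hzc x hx).symm
    have hKdvd : (Subgroup.centralizer ({z} : Set G)).index ∣ q ^ b * g₀ := by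
      rw [← hidx]
      exact Subgroup.index_dvd_of_le hPle
    refine ⟨z, hz, (Subgroup.centralizer ({z} : Set G)).index, ?_, hKdvd, ?_⟩
    · intro h
      exact hpco (dvd_trans h hKdvd)
    · intro l hl
      have hcop : Nat.Coprime l p := ((Nat.Prime.coprime_iff_not_dvd hp).mpr hl).symm
      obtain ⟨m, -, hm⟩ := Nat.exists_mul_mod_eq_one_of_coprime hcop hp.one_lt
      have hzm : (z ^ l) ^ m = z := by
        rw [← pow_mul, ← pow_mod_orderOf, hz, hm, pow_one]
      have heq : Subgroup.centralizer ({z ^ l} : Set G) = Subgroup.centralizer ({z} : Set G) := by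
        ext x
        simp only [Subgroup.mem_centralizer_iff, Set.mem_singleton_iff, forall_eq]
        constructor
        · intro h
          have h' : Commute (z ^ l) x := h
          have h'' := h'.pow_left m
          rw [hzm] at h''
          exact h''
        · intro h
          have h' : Commute z x := h
          exact h'.pow_left l
      rw [heq]

end Cfsg.Agent.Lib.Helper97.BRA
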